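import Cfsg.Agent.Helper3.Steiner.Inter

/-!
More intersection-triangle numbers: blocks of an S(5,8,24) meeting a block in a given 2-set or
4-set.
-/

set_option autoImplicit false

namespace Cfsg.Agent.Helper3

open Cfsg

section SteinerInter2

variable {α : Type*} [Fintype α] [DecidableEq α]

theorem st_5_8_24_triangle (hα : Fintype.card α = 24) {B : Set (Finset α)}
    (hB : IsSteinerSystem 5 8 B) (b : Finset α) (hb : b ∈ B) (s : Finset α) (hs : s ⊆ b) :
    (s.card = 2 → {c : Finset α | c ∈ B ∧ b ∩ c = s}.ncard = 16) ∧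
      (s.card = 4 → {c : Finset α | c ∈ B ∧ b ∩ c = s}.ncard = 4) := by
  have hbcard := hB.1 b hb
  have hrl := st_rel_lt hB hb hs
  refine ⟨fun h2 => ?_, fun h4 => ?_⟩
  · have hne : s ≠ b := by
      intro h
      rw [h] at h2
      omega
    rw [st_exact_set hs hne, Set.ncard_coe_finset, Finset.card_filter]
    have e0 := st_sum_val_rel hB hb hα s hs 2 0 76 h2 (by norm_num) (by decide +kernel)
      (by decide +kernel)
    have e1 := st_sum_val_rel hB hb hα s hs 2 1 120 h2 (by norm_num) (by decide +kernel)
      (by decide +kernel)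
    have e2 := st_sum_val_rel hB hb hα s hs 2 2 60 h2 (by norm_num) (by decide +kernel)
      (by decide +kernel)
    have key : ∀ y < 3, (if y = 0 then 1 else 0) + y.choose 1 = y.choose 0 + y.choose 2 := by
      decide
    have hsum : ∑ d ∈ ((stBlocks B).filter (s ⊆ ·)).erase b,
          ((if ((b ∩ d) \ s).card = 0 then 1 else 0) + ((b ∩ d) \ s).card.choose 1) =
        ∑ d ∈ ((stBlocks B).filter (s ⊆ ·)).erase b,
          (((b ∩ d) \ s).card.choose 0 + ((b ∩ d) \ s).card.choose 2) :=
      Finset.sum_congr rfl (fun d hd => key _ (by have := hrl d hd; omega))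
    simp only [Finset.sum_add_distrib, e0, e1, e2] at hsum
    omega
  · have hne : s ≠ b := by
      intro h
      rw [h] at h4
      omega
    rw [st_exact_set hs hne, Set.ncard_coe_finset, Finset.card_filter]
    have e0 := st_sum_val_rel hB hb hα s hs 4 0 4 h4 (by norm_num) (by decide +kernel)
      (by decide +kernel)
    have key : ∀ y < 1, (if y = 0 then 1 else 0) = y.choose 0 := by decide
    have hsum : ∑ d ∈ ((stBlocks B).filter (s ⊆ ·)).erase b,
          (if ((b ∩ d) \ s).card = 0 then 1 else 0) =
        ∑ d ∈ ((stBlocks B).filter (s ⊆ ·)).erase b, ((b ∩ d) \ s).card.choose 0 :=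
      Finset.sum_congr rfl (fun d hd => key _ (by have := hrl d hd; omega))
    rw [e0] at hsum
    exact hsum

end SteinerInter2

end Cfsg.Agent.Helper3
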