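import Cfsg.Agent.Helper3.Steiner.Inter

/-!
In an abstract S(5,8,24), the symmetric difference of two blocks meeting in four points is a
block.
-/

set_option autoImplicit false

namespace Cfsg.Agent.Helper3

open Cfsg

section SteinerSymm

variable {α : Type*} [Fintype α] [DecidableEq α]

theorem st_5_8_24_symmDiff (hα : Fintype.card α = 24) {B : Set (Finset α)}
    (hB : IsSteinerSystem 5 8 B) {b c : Finset α} (hb : b ∈ B) (hc : c ∈ B)
    (h4 : (b ∩ c).card = 4) : symmDiff b c ∈ B := by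
  have hI : ∀ {x y : Finset α}, x ∈ B → y ∈ B → x ≠ y →
      (x ∩ y).card = 0 ∨ (x ∩ y).card = 2 ∨ (x ∩ y).card = 4 :=
    fun hx hy hxy => st_5_8_24_inter hα hB hx hy hxy
  have hbcard := hB.1 b hb
  have hccard := hB.1 c hc
  have hR : (b \ c).card = 4 := by
    have h1 := Finset.card_sdiff_add_card_inter b c
    omega
  have hR' : (c \ b).card = 4 := by
    have h1 := Finset.card_sdiff_add_card_inter c b
    rw [Finset.inter_comm] at h1
    omega
  obtain ⟨x0, hx0⟩ : (c \ b).Nonempty := Finset.card_pos.1 (by omega)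
  have hx0c : x0 ∈ c := (Finset.mem_sdiff.1 hx0).1
  have hx0b : x0 ∉ b := (Finset.mem_sdiff.1 hx0).2
  have hS5 : (insert x0 (b \ c)).card = 5 := by
    rw [Finset.card_insert_of_notMem (fun h => hx0b (Finset.mem_sdiff.1 h).1), hR]
  obtain ⟨d, ⟨hd, hSd⟩, -⟩ := hB.2 _ hS5
  have hdcard := hB.1 d hd
  have hx0d : x0 ∈ d := hSd (Finset.mem_insert_self _ _)
  have hRd : b \ c ⊆ d := fun x hx => hSd (Finset.mem_insert_of_mem hx)
  have hdb : d ≠ b := by
    intro h
    rw [h] at hx0d
    exact hx0b hx0d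
  have hRdb : b \ c ⊆ d ∩ b := fun x hx =>
    Finset.mem_inter.2 ⟨hRd hx, (Finset.mem_sdiff.1 hx).1⟩
  have hdb4 : (d ∩ b).card = 4 := by
    have h2 := Finset.card_le_card hRdb
    rcases hI hd hb hdb with h | h | h <;> omega
  have hdbR : d ∩ b = b \ c :=
    (Finset.eq_of_subset_of_card_le hRdb (by rw [hdb4, hR])).symm
  have hdQ : ∀ x ∈ d, x ∈ b → x ∉ c := by
    intro x hxd hxb
    have h1 : x ∈ d ∩ b := Finset.mem_inter.2 ⟨hxd, hxb⟩
    rw [hdbR] at h1
    exact (Finset.mem_sdiff.1 h1).2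
  have hdc : d ≠ c := by
    intro h
    obtain ⟨r, hr⟩ : (b \ c).Nonempty := Finset.card_pos.1 (by omega)
    have h1 := hRd hr
    rw [h] at h1
    exact (Finset.mem_sdiff.1 hr).2 h1
  have hdcR' : d ∩ c ⊆ c \ b := by
    intro x hx
    rw [Finset.mem_inter] at hx
    exact Finset.mem_sdiff.2 ⟨hx.2, fun hxb => hdQ x hx.1 hxb hx.2⟩
  have hdcpos : 0 < (d ∩ c).card := Finset.card_pos.2 ⟨x0, Finset.mem_inter.2 ⟨hx0d, hx0c⟩⟩
  rcases hI hd hc hdc with h | h | h
  · omega
  · exfalso
    have hEb : ∀ x ∈ d ∩ c, x ∉ b := fun x hx => (Finset.mem_sdiff.1 (hdcR' hx)).2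
    have hdecomp1 : d \ b ∪ d ∩ b = d := Finset.sdiff_union_inter d b
    have hdecomp2 : (d \ b) \ c ∪ (d \ b) ∩ c = d \ b := Finset.sdiff_union_inter (d \ b) c
    have hdbc : (d \ b) ∩ c = d ∩ c := by
      ext x
      simp only [Finset.mem_inter, Finset.mem_sdiff]
      constructor
      · rintro ⟨⟨hxd, -⟩, hxc⟩
        exact ⟨hxd, hxc⟩
      · rintro ⟨hxd, hxc⟩
        exact ⟨⟨hxd, fun hxb => hdQ x hxd hxb hxc⟩, hxc⟩
    rw [hdbc] at hdecomp2
    have hZcard : ((d \ b) \ c).card = 2 := by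
      have h1 := Finset.card_sdiff_add_card_inter d b
      have h2 := Finset.card_sdiff_add_card_inter (d \ b) c
      rw [hdbc] at h2
      omega
    obtain ⟨z, hz⟩ : ((d \ b) \ c).Nonempty := Finset.card_pos.1 (by omega)
    have hzb : z ∉ b := (Finset.mem_sdiff.1 (Finset.mem_sdiff.1 hz).1).2
    have hzc : z ∉ c := (Finset.mem_sdiff.1 hz).2
    have hfd : ∀ f : Finset α, (f ∩ d).card =
        (f ∩ ((d \ b) \ c)).card + (f ∩ (d ∩ c)).card + (f ∩ (b \ c)).card := by
      intro f
      have e1 : d = ((d \ b) \ c ∪ d ∩ c) ∪ (b \ c) := by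
        rw [hdecomp2, ← hdbR, hdecomp1]
      have hd1 : Disjoint ((d \ b) \ c ∪ d ∩ c) (b \ c) := by
        rw [hdecomp2, Finset.disjoint_left]
        intro x hx hx'
        exact (Finset.mem_sdiff.1 hx).2 (Finset.mem_sdiff.1 hx').1
      have hd2 : Disjoint ((d \ b) \ c) (d ∩ c) := by
        rw [Finset.disjoint_left]
        intro x hx hx'
        exact (Finset.mem_sdiff.1 hx).2 (Finset.mem_inter.1 hx').2
      have e2 : (f ∩ d).card = (f ∩ (((d \ b) \ c ∪ d ∩ c) ∪ (b \ c))).card := by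
        rw [← e1]
      rw [e2, card_inter_union' hd1, card_inter_union' hd2]
    have hfb : ∀ f : Finset α, (f ∩ b).card = (f ∩ (b \ c)).card + (f ∩ (b ∩ c)).card := by
      intro f
      have e2 : (f ∩ b).card = (f ∩ (b \ c ∪ b ∩ c)).card := by
        rw [Finset.sdiff_union_inter]
      rw [e2, card_inter_union' (Finset.disjoint_sdiff_inter b c)]
    have hfc : ∀ f : Finset α, (f ∩ c).card = (f ∩ (c \ b)).card + (f ∩ (b ∩ c)).card := by
      intro f
      have e2 : (f ∩ c).card = (f ∩ (c \ b ∪ c ∩ b)).card := by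
        rw [Finset.sdiff_union_inter]
      rw [e2, card_inter_union' (Finset.disjoint_sdiff_inter c b), Finset.inter_comm c b]
    have hclaim : ∀ q q' : α, q ∈ b ∩ c → q' ∈ b ∩ c → q ≠ q' → ∀ f ∈ B, q ∈ f → q' ∈ f →
        d ∩ c ⊆ f → z ∈ f → (d \ b) \ c ⊆ f := by
      intro q q' hq hq' hqq' f hf hqf hq'f hEf hzf
      have hfc' : f ≠ c := by
        intro h'
        rw [h'] at hzf
        exact hzc hzf
      have hfb' : f ≠ b := by
        intro h'
        rw [h'] at hzf
        exact hzb hzf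
      have hqd : q ∉ d := fun hqd =>
        hdQ q hqd (Finset.mem_inter.1 hq).1 (Finset.mem_inter.1 hq).2
      have hfd' : f ≠ d := by
        intro h'
        rw [h'] at hqf
        exact hqd hqf
      have h2 : 2 ≤ (f ∩ (b ∩ c)).card := by
        have hsub : ({q, q'} : Finset α) ⊆ f ∩ (b ∩ c) := by
          intro x hx
          rw [Finset.mem_insert, Finset.mem_singleton] at hx
          rcases hx with rfl | rfl
          · exact Finset.mem_inter.2 ⟨hqf, hq⟩
          · exact Finset.mem_inter.2 ⟨hq'f, hq'⟩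
        have h3 := Finset.card_le_card hsub
        rwa [Finset.card_pair_eq_two_iff.2 hqq'] at h3
      have h3 : 2 ≤ (f ∩ (c \ b)).card := by
        have hsub : d ∩ c ⊆ f ∩ (c \ b) := fun x hx =>
          Finset.mem_inter.2 ⟨hEf hx, hdcR' hx⟩
        have h5 := Finset.card_le_card hsub
        rwa [h] at h5
      have h4' : (f ∩ (d ∩ c)).card = 2 := by
        rw [Finset.inter_eq_right.2 hEf, h]
      have h5 : 1 ≤ (f ∩ ((d \ b) \ c)).card :=
        Finset.card_pos.2 ⟨z, Finset.mem_inter.2 ⟨hzf, hz⟩⟩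
      have h6 : (f ∩ ((d \ b) \ c)).card ≤ 2 := by
        rw [← hZcard]
        exact Finset.card_le_card Finset.inter_subset_right
      have e1 := hfd f
      have e2 := hfb f
      have e3 := hfc f
      have i1 := hI hf hc hfc'
      have i2 := hI hf hb hfb'
      have i3 := hI hf hd hfd'
      have h7 : (f ∩ ((d \ b) \ c)).card = 2 := by omega
      have h8 : f ∩ ((d \ b) \ c) = (d \ b) \ c :=
        Finset.eq_of_subset_of_card_le Finset.inter_subset_right (by rw [h7, hZcard])
      rw [← h8]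
      exact Finset.inter_subset_left
    obtain ⟨q1, q2, q3, hq1, hq2, hq3, h12, h13, h23⟩ :=
      Finset.two_lt_card_iff.1 (by rw [h4]; norm_num : 2 < (b ∩ c).card)
    have hqE : ∀ q ∈ b ∩ c, q ∉ d ∩ c := fun q hq hqE =>
      hEb q hqE (Finset.mem_inter.1 hq).1
    have hzE : z ∉ d ∩ c := fun h' => hzc (Finset.mem_inter.1 h').2
    have key : ∀ q q' : α, q ∈ b ∩ c → q' ∈ b ∩ c → q ≠ q' →
        ∃ f ∈ B, q ∈ f ∧ q' ∈ f ∧ d ∩ c ⊆ f ∧ z ∈ f ∧ (d \ b) \ c ⊆ f := by
      intro q q' hq hq' hqq'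
      have n1 : q' ∉ d ∩ c := hqE q' hq'
      have n2 : q ∉ insert q' (d ∩ c) := by
        rw [Finset.mem_insert]
        rintro (h' | h')
        · exact hqq' h'
        · exact hqE q hq h'
      have n3 : z ∉ insert q (insert q' (d ∩ c)) := by
        rw [Finset.mem_insert, Finset.mem_insert]
        rintro (h' | h' | h')
        · exact hzc (by rw [h']; exact (Finset.mem_inter.1 hq).2)
        · exact hzc (by rw [h']; exact (Finset.mem_inter.1 hq').2)
        · exact hzE h'
      have hcard5 : (insert z (insert q (insert q' (d ∩ c)))).card = 5 := by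
        rw [Finset.card_insert_of_notMem n3, Finset.card_insert_of_notMem n2,
          Finset.card_insert_of_notMem n1, h]
      obtain ⟨f, ⟨hf, hSf⟩, -⟩ := hB.2 _ hcard5
      have hzf : z ∈ f := hSf (Finset.mem_insert_self _ _)
      have hqf : q ∈ f := hSf (Finset.mem_insert_of_mem (Finset.mem_insert_self _ _))
      have hq'f : q' ∈ f :=
        hSf (Finset.mem_insert_of_mem (Finset.mem_insert_of_mem (Finset.mem_insert_self _ _)))
      have hEf : d ∩ c ⊆ f := fun x hx =>
        hSf (Finset.mem_insert_of_mem (Finset.mem_insert_of_mem (Finset.mem_insert_of_mem hx)))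
      exact ⟨f, hf, hqf, hq'f, hEf, hzf, hclaim q q' hq hq' hqq' f hf hqf hq'f hEf hzf⟩
    obtain ⟨f2, hf2, hq1f2, hq2f2, hEf2, hzf2, hZf2⟩ := key q1 q2 hq1 hq2 h12
    obtain ⟨f3, hf3, hq1f3, hq3f3, hEf3, hzf3, hZf3⟩ := key q1 q3 hq1 hq3 h13
    have hEZ : Disjoint (d ∩ c) ((d \ b) \ c) := by
      rw [Finset.disjoint_left]
      intro x hx hx'
      exact (Finset.mem_sdiff.1 hx').2 (Finset.mem_inter.1 hx).2
    have hcard5' : (insert q1 (d ∩ c ∪ (d \ b) \ c)).card = 5 := by
      have n1 : q1 ∉ d ∩ c ∪ (d \ b) \ c := by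
        rw [Finset.mem_union]
        rintro (h' | h')
        · exact hqE q1 hq1 h'
        · exact (Finset.mem_sdiff.1 (Finset.mem_sdiff.1 h').1).2 (Finset.mem_inter.1 hq1).1
      rw [Finset.card_insert_of_notMem n1, Finset.card_union_of_disjoint hEZ, h, hZcard]
    obtain ⟨f0, -, huniq⟩ := hB.2 _ hcard5'
    have hsub : ∀ f : Finset α, q1 ∈ f → d ∩ c ⊆ f → (d \ b) \ c ⊆ f →
        insert q1 (d ∩ c ∪ (d \ b) \ c) ⊆ f := by
      intro f h1 h2 h3 x hx
      rw [Finset.mem_insert, Finset.mem_union] at hx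
      rcases hx with rfl | hx | hx
      · exact h1
      · exact h2 hx
      · exact h3 hx
    have e2 := huniq f2 ⟨hf2, hsub f2 hq1f2 hEf2 hZf2⟩
    have e3 := huniq f3 ⟨hf3, hsub f3 hq1f3 hEf3 hZf3⟩
    have hq3f2 : q3 ∈ f2 := by
      rw [e2, ← e3]
      exact hq3f3
    have hf2c : f2 ≠ c := by
      intro h'
      rw [h'] at hzf2
      exact hzc hzf2
    have hbig : 5 ≤ (f2 ∩ c).card := by
      have hsub5 : insert q1 (insert q2 (insert q3 (d ∩ c))) ⊆ f2 ∩ c := by
        intro x hx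
        rw [Finset.mem_insert, Finset.mem_insert, Finset.mem_insert] at hx
        rcases hx with rfl | rfl | rfl | hx
        · exact Finset.mem_inter.2 ⟨hq1f2, (Finset.mem_inter.1 hq1).2⟩
        · exact Finset.mem_inter.2 ⟨hq2f2, (Finset.mem_inter.1 hq2).2⟩
        · exact Finset.mem_inter.2 ⟨hq3f2, (Finset.mem_inter.1 hq3).2⟩
        · exact Finset.mem_inter.2 ⟨hEf2 hx, (Finset.mem_inter.1 hx).2⟩
      have n1 : q3 ∉ d ∩ c := hqE q3 hq3
      have n2 : q2 ∉ insert q3 (d ∩ c) := by
        rw [Finset.mem_insert]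
        rintro (h' | h')
        · exact h23 h'
        · exact hqE q2 hq2 h'
      have n3 : q1 ∉ insert q2 (insert q3 (d ∩ c)) := by
        rw [Finset.mem_insert, Finset.mem_insert]
        rintro (h' | h' | h')
        · exact h12 h'
        · exact h13 h'
        · exact hqE q1 hq1 h'
      have hc5 : (insert q1 (insert q2 (insert q3 (d ∩ c)))).card = 5 := by
        rw [Finset.card_insert_of_notMem n3, Finset.card_insert_of_notMem n2,
          Finset.card_insert_of_notMem n1, h]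
      rw [← hc5]
      exact Finset.card_le_card hsub5
    rcases hI hf2 hc hf2c with h' | h' | h' <;> omega
  · have hR'd : c \ b ⊆ d := by
      have e : d ∩ c = c \ b := Finset.eq_of_subset_of_card_le hdcR' (by rw [h, hR'])
      intro x hx
      rw [← e] at hx
      exact (Finset.mem_inter.1 hx).1
    have hsd : symmDiff b c = d := by
      apply Finset.eq_of_subset_of_card_le
      · intro x hx
        rw [Finset.mem_symmDiff] at hx
        rcases hx with ⟨hxb, hxc⟩ | ⟨hxc, hxb⟩
        · exact hRd (Finset.mem_sdiff.2 ⟨hxb, hxc⟩)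
        · exact hR'd (Finset.mem_sdiff.2 ⟨hxc, hxb⟩)
      · have e : symmDiff b c = (b \ c) ∪ (c \ b) := rfl
        have hdj : Disjoint (b \ c) (c \ b) := by
          rw [Finset.disjoint_left]
          intro x h1 h2
          exact (Finset.mem_sdiff.1 h1).2 (Finset.mem_sdiff.1 h2).1
        rw [e, Finset.card_union_of_disjoint hdj, hR, hR', hdcard]
    rw [hsd]
    exact hd

end SteinerSymm

end Cfsg.Agent.Helper3
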